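import Mathlib
import Cfsg.Agent.Lib.Helper92.SUG.Defs
import Cfsg.Agent.Lib.Helper72.SUG.Step
import Cfsg.Agent.Lib.Helper13.UTransvComm

/-!
# Project SUG (S2412, helper92 design), package [CLIMBT]

The block `SU_k` and one isotropic centre with non-zero `k`-th coordinate give all isotropic
centres in the first `k + 1` coordinates.  (Same route as helper72's [STEP] for the earlier
interface; its coordinate-embedding lemmas are reused.)
-/

set_option autoImplicit false

namespace Cfsg.Agent.Lib.Helper12.SUG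

open Matrix Cfsg.Agent.Lib.Helper92.SUG Cfsg.Agent.Lib.Helper13 Cfsg.Agent.Lib.Helper45
  Cfsg.Agent.Lib.Helper44 Cfsg.Agent.Lib.Helper72.SUG

universe u

variable {F : Type u} [Field F] [Fintype F] {q n : ℕ}

omit [Fintype F] in
theorem mat_mul12 (g h : ↥(Cfsg.SU n F q)) : mat (g * h) = mat g * mat h := rfl

omit [Fintype F] in
theorem mat_inv_mul12 (g : ↥(Cfsg.SU n F q)) : mat g⁻¹ * mat g = 1 := by
  rw [← mat_mul12, inv_mul_cancel]; rfl

/-- (CONJ) the centres of `K` are `K`-stable. -/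
theorem hasT_conj {K : Subgroup ↥(Cfsg.SU n F q)} {v : Fin n → F} (hv : HasT K v)
    {g : ↥(Cfsg.SU n F q)} (hg : g ∈ K) : HasT K (mat g *ᵥ v) := by
  intro c g' hg'
  have hG : IsHermIso n F q (mat g) := g.2
  have hinv : mat g⁻¹ * mat g = 1 := mat_inv_mul12 g
  have h1 : mat (g⁻¹ * g' * g) = Cfsg.unitaryTransvection n q v c := by
    rw [mat_mul12, mat_mul12, hg', Matrix.mul_assoc, ← utransv_conj hG v c, ← Matrix.mul_assoc,
      hinv, Matrix.one_mul]
  have h2 : g⁻¹ * g' * g ∈ K := hv c _ h1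
  have h3 : g' = g * (g⁻¹ * g' * g) * g⁻¹ := by group
  rw [h3]
  exact K.mul_mem (K.mul_mem hg h2) (K.inv_mem hg)

/-- (SCAL) the centres of `K` are stable under scalars. -/
theorem hasT_smul {K : Subgroup ↥(Cfsg.SU n F q)} {v : Fin n → F} (hv : HasT K v) (a : F) :
    HasT K (a • v) := by
  intro c g hg
  rw [utransv_smul] at hg
  exact hv _ g hg

omit [Fintype F] in
/-- a transvection with centre in the first `k` coordinates is a block-`k` matrix. -/
theorem utransv_block {k : ℕ} (hq : q ≠ 0) {y : Fin n → F} (hy : Wk k y) (c : F) (i j : Fin n)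
    (hij : k ≤ i.val ∨ k ≤ j.val) :
    Cfsg.unitaryTransvection n q y c i j = (1 : Matrix (Fin n) (Fin n) F) i j := by
  unfold Cfsg.unitaryTransvection
  rw [Matrix.add_apply, Matrix.smul_apply, Matrix.vecMulVec_apply]
  rcases hij with h | h
  · rw [hy i h]; simp
  · rw [hy j h, zero_pow hq]; simp

omit [Fintype F] in
/-- the lift of a `k × k` matrix along the coordinate embedding is a block-`k` matrix. -/
theorem isoLift_block {k : ℕ} (hq : q ≠ 0) (G : Matrix (Fin k) (Fin k) F) (i j : Fin n)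
    (hij : k ≤ i.val ∨ k ≤ j.val) :
    isoLift q (cB n k F) G i j = (1 : Matrix (Fin n) (Fin n) F) i j := by
  unfold isoLift
  rw [Matrix.add_apply]
  have h0 : (cB n k F * (G - 1) * cT q (cB n k F) : Matrix (Fin n) (Fin n) F) i j = 0 := by
    rw [Matrix.mul_apply]
    apply Finset.sum_eq_zero
    intro b _
    rcases hij with h | h
    · have h1 : (cB n k F * (G - 1) : Matrix (Fin n) (Fin k) F) i b = 0 := by
        rw [Matrix.mul_apply]
        apply Finset.sum_eq_zero
        intro a _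
        have h2 : (i : ℕ) ≠ (a : ℕ) := by have := a.isLt; omega
        simp [cB, h2]
      rw [h1, zero_mul]
    · have h1 : cT q (cB n k F) b j = 0 := by
        have h2 : (j : ℕ) ≠ (b : ℕ) := by have := b.isLt; omega
        simp [cT, cB, h2, hq]
      rw [h1, mul_zero]
  rw [h0, add_zero]

/-- **[CLIMBT]** -/
theorem pkgClimbT : PkgClimbT.{u} := by
  intro F _ _ q n k hF hk2 hk K hFull x hx hxW hxk hTx y hy hyW
  classical
  have hq : 2 ≤ q := two_le_q hF
  have hq0 : q ≠ 0 := by omega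
  have hkn : k ≤ n := by omega
  obtain ⟨i₀, hi₀def⟩ : ∃ i₀ : Fin n, i₀ = ⟨k, hk⟩ := ⟨_, rfl⟩
  have hi₀ : (i₀ : ℕ) = k := by rw [hi₀def]
  rw [← hi₀def] at hxk
  have hB : IsIsoEmb q (cB n k F) := isIsoEmb_cB hF hkn
  by_cases hl : y i₀ = 0
  · have hyk : Wk k y := by
      intro i hi
      by_cases h2 : (i : ℕ) = k
      · have : i = i₀ := Fin.ext (h2.trans hi₀.symm)
        rw [this]; exact hl
      · exact hyW i (by omega)
    intro c g hg
    apply hFull
    intro i j hij
    rw [hg]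
    exact utransv_block hq0 hyk c i j hij
  · obtain ⟨l, hldef⟩ : ∃ l : F, l = y i₀ := ⟨_, rfl⟩
    rw [← hldef] at hl
    obtain ⟨x', hx'def⟩ : ∃ x' : Fin n → F, x' = (l / x i₀) • x := ⟨_, rfl⟩
    have hTx' : HasT K x' := by rw [hx'def]; exact hasT_smul hTx _
    have hx'iso : Cfsg.hermForm n F q x' x' = 0 := by
      rw [hx'def, herm_smul_left, herm_smul_right, hx]; ring
    have hx'S : Wk (k + 1) x' := by
      intro i hi; rw [hx'def, Pi.smul_apply, hxW i hi, smul_zero]
    have hx'i : x' i₀ = l := by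
      rw [hx'def, Pi.smul_apply, smul_eq_mul, div_mul_cancel₀ _ hxk]
    obtain ⟨ξ, hξ⟩ : ∃ ξ : Fin k → F, ξ = fun j => x' (Fin.castLE hkn j) := ⟨_, rfl⟩
    obtain ⟨η, hη⟩ : ∃ η : Fin k → F, η = fun j => y (Fin.castLE hkn j) := ⟨_, rfl⟩
    have hx'dec : x' = cB n k F *ᵥ ξ + l • Pi.single i₀ (1 : F) := by
      have := decomp_cB hkn x' hx'S i₀ hi₀
      rw [hx'i, ← hξ] at this; exact this
    have hydec : y = cB n k F *ᵥ η + l • Pi.single i₀ (1 : F) := by
      have := decomp_cB hkn y hyW i₀ hi₀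
      rw [← hldef, ← hη] at this; exact this
    have hnorm : ∀ ζ : Fin k → F,
        Cfsg.hermForm n F q (cB n k F *ᵥ ζ + l • Pi.single i₀ (1 : F))
          (cB n k F *ᵥ ζ + l • Pi.single i₀ (1 : F)) =
        Cfsg.hermForm k F q ζ ζ + l ^ (q + 1) := by
      intro ζ
      have e1 : Cfsg.hermForm n F q (cB n k F *ᵥ ζ) (Pi.single i₀ (1 : F)) = 0 := by
        rw [herm_single_right hq0]
        exact supp_cB ζ i₀ (by omega)
      have e2 : Cfsg.hermForm n F q (Pi.single i₀ (1 : F)) (cB n k F *ᵥ ζ) = 0 := by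
        rw [← herm_conj hF, e1, conj_zero hF]
      have e3 : Cfsg.hermForm n F q (Pi.single i₀ (1 : F)) (Pi.single i₀ (1 : F)) = 1 := by
        rw [herm_single_right hq0]; simp
      rw [herm_add_left, herm_add_right hF, herm_add_right hF, hB, herm_smul_left,
        herm_smul_left, herm_smul_right, herm_smul_right, e1, e2, e3]
      ring
    have hξn : Cfsg.hermForm k F q ξ ξ = -(l ^ (q + 1)) := by
      have h1 := hnorm ξ
      rw [← hx'dec, hx'iso] at h1
      linear_combination -h1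
    have hηn : Cfsg.hermForm k F q η η = -(l ^ (q + 1)) := by
      have h1 := hnorm η
      rw [← hydec, hy] at h1
      linear_combination -h1
    have hξ0 : Cfsg.hermForm k F q ξ ξ ≠ 0 := by
      rw [hξn]; exact neg_ne_zero.2 (pow_ne_zero _ hl)
    obtain ⟨G, hG, hdet, hGξ⟩ := exists_hermIso_det_map hF hk2 ξ η hξ0 (by rw [hξn, hηn]) 1
      (one_pow _)
    obtain ⟨g, hgdef⟩ : ∃ g : ↥(Cfsg.SU n F q), g = suMk (isoLift q (cB n k F) G)
        (by rw [det_isoLift hF hB, hdet]) (isHermIso_isoLift hF hB hG) := ⟨_, rfl⟩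
    have hg : mat g = isoLift q (cB n k F) G := by rw [hgdef]; rfl
    have hgK : g ∈ K := by
      apply hFull
      intro i j hij
      rw [hg]
      exact isoLift_block hq0 G i j hij
    have hgv : mat g *ᵥ x' = y := by
      rw [hg, hx'dec, Matrix.mulVec_add, isoLift_mulVec_emb hF hB, hGξ, Matrix.mulVec_smul,
        isoLift_mulVec_perp _ _ _ (cT_cB_single hq0 i₀ hi₀), ← hydec]
    rw [← hgv]
    exact hasT_conj hTx' hgK

end Cfsg.Agent.Lib.Helper12.SUG
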