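import Mathlib
import Cfsg.Agent.Lib.Helper92.SUG.Defs
import Cfsg.Agent.Lib.Helper72.SUG.Step
import Cfsg.Agent.Lib.Helper13.UTransvComm
import Cfsg.Agent.Lib.Helper12.SUG.ClimbT

/-!
# Project SUG (S2412, helper92 design), package [TRV]

Transvections centred in the first `k` coordinates generate the block `SU_k`.
-/

set_option autoImplicit false

namespace Cfsg.Agent.Lib.Helper12.SUG

open Matrix Cfsg.Agent.Lib.Helper92.SUG Cfsg.Agent.Lib.Helper13 Cfsg.Agent.Lib.Helper45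
  Cfsg.Agent.Lib.Helper44 Cfsg.Agent.Lib.Helper72.SUG

universe u

variable {F : Type u} [Field F] [Fintype F] {q n : ℕ}

omit [Fintype F] in
/-- the entries of a lift inside the block. -/
theorem isoLift_inner {k : ℕ} (hq : q ≠ 0) (hkn : k ≤ n) (A : Matrix (Fin k) (Fin k) F)
    (a b : Fin k) :
    isoLift q (cB n k F) A (Fin.castLE hkn a) (Fin.castLE hkn b) = A a b := by
  classical
  unfold isoLift
  rw [Matrix.add_apply, Matrix.mul_apply, Finset.sum_eq_single b]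
  · rw [Matrix.mul_apply, Finset.sum_eq_single a]
    · simp [cB, cT, Matrix.one_apply, Fin.ext_iff]
    · intro a' _ ha'
      have h2 : (a : ℕ) ≠ (a' : ℕ) := fun e => ha' (Fin.ext e.symm)
      simp [cB, h2]
    · intro h'; exact absurd (Finset.mem_univ _) h'
  · intro b' _ hb'
    have h2 : (b : ℕ) ≠ (b' : ℕ) := fun e => hb' (Fin.ext e.symm)
    simp [cT, cB, h2, hq]
  · intro h'; exact absurd (Finset.mem_univ _) h'

/-- **[TRV]** -/
theorem pkgTrv : PkgTrv.{u} := by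
  intro F _ _ q n k hF hk3 hkn hk4 K hT g hg
  classical
  have hq : 2 ≤ q := two_le_q hF
  have hq0 : q ≠ 0 := by omega
  have hB : IsIsoEmb q (cB n k F) := isIsoEmb_cB hF hkn
  have hBB : cT q (cB n k F) * cB n k F = 1 := cT_cB_mul hq0 hkn
  obtain ⟨A, hAdef⟩ : ∃ A : Matrix (Fin k) (Fin k) F,
      A = Matrix.of fun a b => mat g (Fin.castLE hkn a) (Fin.castLE hkn b) := ⟨_, rfl⟩
  have hgA : mat g = isoLift q (cB n k F) A := by
    ext i j
    by_cases hij : k ≤ i.val ∨ k ≤ j.val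
    · rw [hg i j hij, isoLift_block hq0 A i j hij]
    · have hi : i.val < k := by omega
      have hj : j.val < k := by omega
      have ei : i = Fin.castLE hkn ⟨i.val, hi⟩ := Fin.ext rfl
      have ej : j = Fin.castLE hkn ⟨j.val, hj⟩ := Fin.ext rfl
      rw [ei, ej, isoLift_inner hq0 hkn, hAdef, Matrix.of_apply]
  have hA : IsHermIso k F q A := by
    intro ξ η
    have h1 := g.2 (cB n k F *ᵥ ξ) (cB n k F *ᵥ η)
    have h2 : ∀ ζ : Fin k → F, mat g *ᵥ (cB n k F *ᵥ ζ) = cB n k F *ᵥ (A *ᵥ ζ) := by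
      intro ζ
      rw [hgA, isoLift_mulVec_emb hF hB]
    have h3 : Cfsg.hermForm n F q (mat g *ᵥ (cB n k F *ᵥ ξ)) (mat g *ᵥ (cB n k F *ᵥ η)) =
        Cfsg.hermForm n F q (cB n k F *ᵥ ξ) (cB n k F *ᵥ η) := h1
    rw [h2, h2, hB, hB] at h3
    exact h3
  have hdet : A.det = 1 := by
    have h1 : (mat g).det = 1 := (g : Matrix.SpecialLinearGroup (Fin n) F).2
    rw [hgA, det_isoLift hF hB] at h1
    exact h1
  have hAT : InT k F q A := su_inT hF k hk4 A hA hdet
  have hlift : ∃ g' ∈ K, mat g' = isoLift q (cB n k F) A := by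
    refine Submonoid.closure_induction
      (motive := fun M _ => ∃ g' ∈ K, mat g' = isoLift q (cB n k F) M) ?_ ?_ ?_ hAT
    · rintro _ ⟨u, c, hu, hc, rfl⟩
      have hu' : Cfsg.hermForm n F q (cB n k F *ᵥ u) (cB n k F *ᵥ u) = 0 := by rw [hB, hu]
      refine ⟨suMk (Cfsg.unitaryTransvection n q (cB n k F *ᵥ u) c) (det_utransv _ c hu')
        (isHermIso_utransv hF _ c hu' hc), ?_, ?_⟩
      · exact hT _ hu' (supp_cB u) c _ rfl
      · rw [isoLift_utransv hF]; rfl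
    · refine ⟨1, K.one_mem, ?_⟩
      rw [show isoLift q (cB n k F) (1 : Matrix (Fin k) (Fin k) F) = 1 by simp [isoLift]]
      rfl
    · rintro M₁ M₂ _ _ ⟨g₁, hg₁, e₁⟩ ⟨g₂, hg₂, e₂⟩
      exact ⟨g₁ * g₂, K.mul_mem hg₁ hg₂, by rw [isoLift_mul72 hBB, ← e₁, ← e₂]; rfl⟩
  obtain ⟨g', hg'K, hg'⟩ := hlift
  have : g = g' := by
    apply su_ext
    show mat g = mat g'
    rw [hgA, hg']
  rw [this]
  exact hg'K

end Cfsg.Agent.Lib.Helper12.SUG
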